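import Mathlib
import Cfsg.Agent.TcChain36.M63.Rw
import Cfsg.Agent.Lib.Fi22O7.Chain
import Cfsg.Agent.Lib.OutTreeE36
import Cfsg.Agent.Lib.SchurStem

/-!
# Central extensions of `PΩ₇(3)` with kernel of odd order

The letters are involutions and have unique lifts which are involutions; the relations of the diagram and the order of
the products of pairs of 3-transpositions lift, and the two further relators then say that the kernel is generated by
one element of order dividing three.
-/

set_option autoImplicit false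
set_option maxRecDepth 100000
set_option linter.all false

namespace Cfsg.Agent.TcChain36.M63

open Cfsg Cfsg.Agent.Lib.CoxRw36 Cfsg.Agent.Lib.TcBits Cfsg.Agent.Lib.TcPres Cfsg.Agent.Lib.PresChain36
  Cfsg.Agent.Lib.Fi22O7 Cfsg.Spor
open Cfsg.Agent.TcChain36.Fi22.Y232 (Gen RR relL edges nodesL extra hrel)

/-- The group. -/
abbrev Gp := PresentedGroup RR

/-- The letters. -/
def dc : ℕ → Gen
  | 0 => .b
  | 1 => .c
  | 2 => .d
  | 3 => .e
  | 4 => .f
  | 5 => .g
  | 6 => .h
  | _ => .i

/-- The code of a letter. -/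
def code : Gen → ℕ
  | .b => 0
  | .c => 1
  | .d => 2
  | .e => 3
  | .f => 4
  | .g => 5
  | .h => 6
  | .i => 7

theorem dc_code (x : Gen) : dc (code x) = x := by cases x <;> rfl

/-- The letters in the group. -/
noncomputable def Lt : ℕ → Gp := fun i => PresentedGroup.of (dc i)

theorem mem_nodes (x : Gen) : x ∈ nodesL := by cases x <;> decide

theorem pair_mem (x y : Gen) : (FreeGroup.of x * FreeGroup.of y) ^ coxLabel edges x y ∈ relL :=
  List.mem_append_left _ (List.mem_flatMap.mpr ⟨x, mem_nodes x, List.mem_map.mpr ⟨y, mem_nodes y, rfl⟩⟩)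

theorem pair_rel (x y : Gen) :
    ((PresentedGroup.of x : Gp) * PresentedGroup.of y) ^ coxLabel edges x y = 1 := by
  have h := hrel _ (pair_mem x y)
  rwa [map_pow, map_mul] at h

theorem m7_lt (a : ℕ) : m7 a < 8 := by
  unfold m7
  cases h : Nat.ble a 7 with
  | true =>
    have := Nat.le_of_ble_eq_true h
    simp only [cond_true]
    omega
  | false => simp

theorem dc_m7 (a : ℕ) : dc (m7 a) = dc a := by
  match a with
  | 0 => rfl
  | 1 => rfl
  | 2 => rfl
  | 3 => rfl
  | 4 => rfl
  | 5 => rfl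
  | 6 => rfl
  | 7 => rfl
  | n + 8 =>
    have h : Nat.ble (n + 8) 7 = false := by
      rw [← Bool.not_eq_true, Nat.ble_eq]
      omega
    simp only [m7, h, cond_false]
    rfl

theorem adj_fin : ∀ a, a < 8 → ∀ b, b < 8 → adjN a b = decide (coxLabel edges (dc a) (dc b) = 3) := by
  decide +kernel

theorem m7_of_lt {a : ℕ} (h : a < 8) : m7 a = a := by
  have h1 : Nat.ble a 7 = true := Nat.ble_eq.mpr (by omega)
  simp only [m7, h1, cond_true]

theorem m7_m7 (a : ℕ) : m7 (m7 a) = m7 a := m7_of_lt (m7_lt a)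

theorem adjN_m7 (a b : ℕ) : adjN a b = adjN (m7 a) (m7 b) := by
  unfold adjN
  rw [m7_m7, m7_m7]

theorem adjN_eq (a b : ℕ) : adjN a b = decide (coxLabel edges (dc a) (dc b) = 3) := by
  rw [adjN_m7, adj_fin _ (m7_lt a) _ (m7_lt b), dc_m7, dc_m7]

theorem label_fin : ∀ x y : Gen, coxLabel edges x y = 1 ∧ x = y ∨ coxLabel edges x y = 2 ∨ coxLabel edges x y = 3 := by
  intro x y
  cases x <;> cases y <;> decide +kernel

section Ext

variable {E : Type*} [Group E] [Finite E] {τ : E →* Gp}

theorem ker_comm (hτ : IsStemExtension τ) {k : E} (hk : k ∈ τ.ker) (y : E) : k * y = y * k :=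
  (Subgroup.mem_center_iff.mp (hτ.2.1 hk) y).symm

theorem ker_one (hodd : Odd (Nat.card τ.ker)) {k : E} (hk : k ∈ τ.ker) (h : k * k = 1) : k = 1 := by
  have h1 : orderOf (⟨k, hk⟩ : τ.ker) ∣ Nat.card τ.ker := orderOf_dvd_natCard _
  have h2 : (⟨k, hk⟩ : τ.ker) ^ 2 = 1 := by
    apply Subtype.ext
    show k ^ 2 = 1
    rw [pow_two, h]
  have h3 : orderOf (⟨k, hk⟩ : τ.ker) ∣ 2 := orderOf_dvd_of_pow_eq_one h2
  have h4 : orderOf (⟨k, hk⟩ : τ.ker) ∣ Nat.gcd (Nat.card τ.ker) 2 := Nat.dvd_gcd h1 h3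
  have h5 : Nat.gcd (Nat.card τ.ker) 2 = 1 := by
    rw [Nat.gcd_comm]
    exact (Nat.coprime_two_left.mpr hodd)
  rw [h5, Nat.dvd_one, orderOf_eq_one_iff] at h4
  exact congrArg Subtype.val h4

theorem inv_uniq (hτ : IsStemExtension τ) (hodd : Odd (Nat.card τ.ker)) {y y' : E} (hy : y * y = 1) (hy' : y' * y' = 1)
    (h : τ y = τ y') : y = y' := by
  have hk : y⁻¹ * y' ∈ τ.ker := by
    rw [MonoidHom.mem_ker, map_mul, map_inv, h, inv_mul_cancel]
  have h1 : (y⁻¹ * y') * (y⁻¹ * y') = 1 := by
    have e : y' = y * (y⁻¹ * y') := by group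
    have h2 := hy'
    rw [e] at h2
    have h3 := ker_comm hτ hk (y * (y⁻¹ * y'))
    have : y * (y⁻¹ * y') * (y * (y⁻¹ * y')) = y * y * ((y⁻¹ * y') * (y⁻¹ * y')) := by
      calc y * (y⁻¹ * y') * (y * (y⁻¹ * y')) = y * ((y⁻¹ * y') * y) * (y⁻¹ * y') := by group
        _ = y * (y * (y⁻¹ * y')) * (y⁻¹ * y') := by rw [ker_comm hτ hk y]
        _ = y * y * ((y⁻¹ * y') * (y⁻¹ * y')) := by group
    rw [this, hy, one_mul] at h2
    exact h2
  have h2 := ker_one hodd hk h1
  have h3 : y' = y * (y⁻¹ * y') := by group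
  rw [h3, h2, mul_one]

theorem exists_lift (hτ : IsStemExtension τ) (hodd : Odd (Nat.card τ.ker)) {g : Gp} (hg : g * g = 1) :
    ∃ y, τ y = g ∧ y * y = 1 := by
  obtain ⟨y₀, rfl⟩ := hτ.1 g
  obtain ⟨n, hn⟩ := hodd
  have hk : y₀ * y₀ ∈ τ.ker := by
    rw [MonoidHom.mem_ker, map_mul, hg]
  refine ⟨y₀ ^ Nat.card τ.ker, ?_, ?_⟩
  · rw [map_pow, hn, pow_succ, pow_mul, pow_two, hg, one_pow, one_mul]
  · have h1 : (⟨y₀ * y₀, hk⟩ : τ.ker) ^ Nat.card τ.ker = 1 := pow_card_eq_one'
    have h2 : (y₀ * y₀) ^ Nat.card τ.ker = 1 := congrArg Subtype.val h1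
    rw [← pow_add, ← two_mul, pow_mul, ← pow_two] at *
    rw [pow_two] at *
    exact h2

theorem cube_form {G : Type*} [Group G] (a b : G) : (a * b) ^ 3 = a * b * a * (b * a * b) := by
  simp only [pow_succ, pow_zero, one_mul, mul_assoc]

/-- The products of pairs of lifts of 3-transpositions. -/
theorem cube_lift (hτ : IsStemExtension τ) (hodd : Odd (Nat.card τ.ker)) {u v : E} (hu : u * u = 1) (hv : v * v = 1)
    (h : τ ((u * v) ^ 3) = 1) : (u * v) ^ 3 = 1 := by
  have e1 : (u * v * u) * (u * v * u) = 1 := by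
    calc (u * v * u) * (u * v * u) = u * v * (u * u) * v * u := by group
      _ = u * (v * v) * u := by rw [hu]; group
      _ = u * u := by rw [hv]; group
      _ = 1 := hu
  have e2 : (v * u * v) * (v * u * v) = 1 := by
    calc (v * u * v) * (v * u * v) = v * u * (v * v) * u * v := by group
      _ = v * (u * u) * v := by rw [hv]; group
      _ = v * v := by rw [hu]; group
      _ = 1 := hv
  have hg : τ u * τ u = 1 := by rw [← map_mul, hu, map_one]
  have hg' : τ v * τ v = 1 := by rw [← map_mul, hv, map_one]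
  have h1 : τ (u * v * u) = τ (v * u * v) := by
    rw [map_pow, map_mul] at h
    simp only [map_mul]
    have h2 : τ u * τ v * τ u * (τ v * τ u * τ v) = 1 := by
      rw [← h, cube_form]
    have h3 : (τ v * τ u * τ v) * (τ v * τ u * τ v) = 1 := by
      simp only [← map_mul]
      rw [e2, map_one]
    calc τ u * τ v * τ u = τ u * τ v * τ u * ((τ v * τ u * τ v) * (τ v * τ u * τ v)) := by rw [h3, mul_one]
      _ = (τ u * τ v * τ u * (τ v * τ u * τ v)) * (τ v * τ u * τ v) := by group
      _ = τ v * τ u * τ v := by rw [h2, one_mul]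
  have h2 := inv_uniq hτ hodd e1 e2 h1
  calc (u * v) ^ 3 = (u * v * u) * (v * u * v) := cube_form u v
    _ = (u * v * u) * (u * v * u) := by rw [h2]
    _ = 1 := e1

theorem conj_invol {u v : E} (hu : u * u = 1) (hv : v * v = 1) : (u * v * u) * (u * v * u) = 1 := by
  calc (u * v * u) * (u * v * u) = u * v * (u * u) * v * u := by group
    _ = u * (v * v) * u := by rw [hu]; group
    _ = u * u := by rw [hv]; group
    _ = 1 := hu

theorem Lt_inv (i : ℕ) : Lt i * Lt i = 1 := by
  have h := pair_rel (dc i) (dc i)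
  have h1 : coxLabel edges (dc i) (dc i) = 1 := by simp [coxLabel]
  rw [h1, pow_one] at h
  exact h

theorem map_evC {L : ℕ → E} (h1 : ∀ i, τ (L i) = Lt i) : ∀ w : List ℕ, τ (evC L w) = evC Lt w := by
  intro w
  induction w with
  | nil => simp
  | cons a w ih => rw [evC_cons, evC_cons, map_mul, ih, h1]

/-- The relations of the diagram for the lifts. -/
theorem coxF_L (hτ : IsStemExtension τ) (hodd : Odd (Nat.card τ.ker)) {L : ℕ → E} (h1 : ∀ i, τ (L i) = Lt i)
    (h2 : ∀ i, L i * L i = 1) : CoxF L adjN := by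
  refine ⟨h2, ?_, ?_⟩
  · intro a b hab
    rcases label_fin (dc a) (dc b) with ⟨h3, h4⟩ | h3 | h3
    · have : L a = L b := inv_uniq hτ hodd (h2 a) (h2 b) (by rw [h1, h1]; simp [Lt, h4])
      rw [this]
    · have hp := pair_rel (dc a) (dc b)
      rw [h3, pow_two] at hp
      have e : L a * L b * L a = L b := by
        refine inv_uniq hτ hodd (conj_invol (h2 a) (h2 b)) (h2 b) ?_
        rw [map_mul, map_mul, h1, h1]
        have hx := Lt_inv a
        have hy := Lt_inv b
        change Lt a * Lt b * (Lt a * Lt b) = 1 at hp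
        have h5 : Lt a * Lt b * Lt a = (Lt b)⁻¹ := eq_inv_of_mul_eq_one_left (by rw [← hp]; group)
        rw [h5]
        exact inv_eq_of_mul_eq_one_left hy
      calc L a * L b = L a * L b * L a * L a := by rw [mul_assoc (L a * L b), h2, mul_one]
        _ = L b * L a := by rw [e]
    · rw [adjN_eq, decide_eq_false_iff_not] at hab
      exact absurd h3 hab
  · intro a b hab
    rw [adjN_eq, decide_eq_true_iff] at hab
    have hp := pair_rel (dc a) (dc b)
    rw [hab] at hp
    change (Lt a * Lt b) ^ 3 = 1 at hp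
    have h3 : (L a * L b) ^ 3 = 1 := cube_lift hτ hodd (h2 a) (h2 b) (by
      rw [map_pow, map_mul, h1, h1]
      exact hp)
    have e2 : (L b * L a * L b) * (L b * L a * L b) = 1 := conj_invol (h2 b) (h2 a)
    rw [cube_form] at h3
    calc L a * L b * L a = (L a * L b * L a * (L b * L a * L b)) * (L b * L a * L b) := by
          rw [mul_assoc (L a * L b * L a), e2, mul_one]
      _ = L b * L a * L b := by rw [h3, one_mul]

end Ext

theorem evC_flat {G : Type*} [Group G] (f : ℕ → G) (w : List ℕ) (n : ℕ) :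
    evC f (List.flatten (List.replicate n w)) = (evC f w) ^ n := by
  induction n with
  | zero => simp
  | succ n ih =>
    rw [List.replicate_succ, List.flatten_cons, evC_append, ih, pow_succ']

/-- A word acting trivially is trivial. -/
theorem gp_one (w : List ℕ)
    (h : ∀ b ∈ baseL, wordApply (sgnProg pr) (w.map fun i => (dc i, true)) (2 ^ b) = 2 ^ b) : evC Lt w = 1 := by
  apply card_spec.2
  intro b hb
  have h1 := Cfsg.Agent.Lib.OutTree36.wa_spec hR hv dc w (2 ^ b) b
  rw [h b hb, Nat.testBit_two_pow, Nat.testBit_two_pow] at h1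
  have h2 := of_decide_eq_true (h1.symm.trans (decide_eq_true rfl))
  exact h2.symm

/-- The word whose cube is a translation's cube. -/
def rW3 : List ℕ := (7 :: rth) ++ ((7 :: rth) ++ (7 :: rth))

set_option Elab.async false in
theorem chk_t3 : ∀ b ∈ baseL, wordApply (sgnProg pr) (rW3.map fun i => (dc i, true)) (2 ^ b) = 2 ^ b := by
  decide +kernel

theorem rel_t3 : (Lt 7 * evC Lt rth) ^ 3 = 1 := by
  have h := gp_one rW3 chk_t3
  rw [rW3, evC_append, evC_append, evC_cons] at h
  rw [← h]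
  simp only [pow_succ, pow_zero, one_mul, mul_assoc]

theorem mem_E7 : (FreeGroup.of Gen.b * FreeGroup.of Gen.c * FreeGroup.of Gen.d * FreeGroup.of Gen.e * FreeGroup.of Gen.f
    * FreeGroup.of Gen.g * FreeGroup.of Gen.h) ^ 9 ∈ relL := by decide +kernel

theorem mem_sp : (FreeGroup.of Gen.d * FreeGroup.of Gen.c * FreeGroup.of Gen.b * FreeGroup.of Gen.d * FreeGroup.of Gen.e
    * FreeGroup.of Gen.f * FreeGroup.of Gen.d * FreeGroup.of Gen.h * FreeGroup.of Gen.i) ^ 10 ∈ relL := by decide +kernel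

theorem extra_eq : extra = [(FreeGroup.of Gen.d * FreeGroup.of Gen.c * FreeGroup.of Gen.b * FreeGroup.of Gen.d * FreeGroup.of Gen.e
    * FreeGroup.of Gen.f * FreeGroup.of Gen.d * FreeGroup.of Gen.h * FreeGroup.of Gen.i) ^ 10,
    (FreeGroup.of Gen.b * FreeGroup.of Gen.c * FreeGroup.of Gen.d * FreeGroup.of Gen.e * FreeGroup.of Gen.f
    * FreeGroup.of Gen.g * FreeGroup.of Gen.h) ^ 9] := by decide +kernel

theorem rel_E7 : (evC Lt cE7) ^ 9 = 1 := by
  have h := hrel _ mem_E7
  rw [map_pow] at h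
  simp only [map_mul] at h
  rw [← h]
  congr 1

theorem rel_sp : (evC Lt spW) ^ 10 = 1 := by
  have h := hrel _ mem_sp
  rw [map_pow] at h
  simp only [map_mul] at h
  rw [← h]
  congr 1

section Main

variable {E : Type*} [Group E] [Finite E] {τ : E →* Gp}

open scoped commutatorElement

theorem pair_lift (hτ : IsStemExtension τ) (hodd : Odd (Nat.card τ.ker)) {L : ℕ → E} (h1 : ∀ i, τ (L i) = Lt i)
    (h2 : ∀ i, L i * L i = 1) (a b : ℕ) : (L a * L b) ^ coxLabel edges (dc a) (dc b) = 1 := by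
  have hC := coxF_L hτ hodd h1 h2
  rcases label_fin (dc a) (dc b) with ⟨h3, h4⟩ | h3 | h3
  · have : L a = L b := inv_uniq hτ hodd (h2 a) (h2 b) (by rw [h1, h1]; simp [Lt, h4])
    rw [h3, pow_one, this, h2]
  · have hf : adjN a b = false := by
      rw [adjN_eq, decide_eq_false_iff_not, h3]
      norm_num
    have := hC.comm a b hf
    rw [h3, pow_two]
    calc L a * L b * (L a * L b) = L a * (L b * L a) * L b := by group
      _ = L a * (L a * L b) * L b := by rw [this]
      _ = (L a * L a) * (L b * L b) := by group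
      _ = 1 := by rw [h2, h2, one_mul]
  · rw [h3]
    refine cube_lift hτ hodd (h2 a) (h2 b) ?_
    rw [map_pow, map_mul, h1, h1]
    have hp := pair_rel (dc a) (dc b)
    rw [h3] at hp
    exact hp

/-- The kernel of an extension with odd kernel. -/
theorem lemmaO (hτ : IsStemExtension τ) (hodd : Odd (Nat.card τ.ker)) :
    ∃ z ∈ τ.ker, z ^ 3 = 1 ∧ ∀ k ∈ τ.ker, k ∈ Subgroup.zpowers z := by
  classical
  choose L h1 h2 using fun i => exists_lift hτ hodd (Lt_inv i)
  have hC := coxF_L hτ hodd h1 h2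
  have hM := map_evC (τ := τ) h1
  -- the first further relator
  have hz1 : (evC L cE7) ^ 9 = 1 := by
    refine ker_one hodd ?_ ?_
    · rw [MonoidHom.mem_ker, map_pow, hM]
      exact rel_E7
    · have := evC_eq_one hC idE7
      rw [evC_flat] at this
      rw [← pow_add]
      exact this
  -- the second
  have hzK : (evC L spW) ^ 10 ∈ τ.ker := by
    rw [MonoidHom.mem_ker, map_pow, hM]
    exact rel_sp
  have hV : evC L rth * evC L rth = 1 := by
    have h3 := evC_reverse h2 rth
    rw [rth_pal] at h3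
    nth_rewrite 1 [h3]
    exact inv_mul_cancel _
  have ht : (L 7 * evC L rth) ^ 3 = 1 := by
    refine cube_lift hτ hodd (h2 7) hV ?_
    rw [map_pow, map_mul, h1, hM]
    exact rel_t3
  have hT : ∀ j, (evC L (tW j)) ^ 3 = 1 := by
    intro j
    have e : evC L (tW j) = evC L (gW j) * (L 7 * evC L rth) * (evC L (gW j))⁻¹ := by
      rw [tW, evC_append, evC_cons, evC_append, evC_reverse h2]
      group
    rw [e, conj_pow, ht, mul_one, mul_inv_cancel]
  have hcomm : ∀ {i j : ℕ} {m : List ℕ}, runM adjN m (tW i ++ (tW j ++ ((tW i).reverse ++ (tW j).reverse))) = [] →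
      Commute (evC L (tW i)) (evC L (tW j)) := by
    intro i j m hm
    have h3 := evC_eq_one hC hm
    rw [evC_append, evC_append, evC_append, evC_reverse h2, evC_reverse h2] at h3
    show _ * _ = _ * _
    have h4 : evC L (tW i) * evC L (tW j) = (evC L (tW i) * (evC L (tW j) * ((evC L (tW i))⁻¹ * (evC L (tW j))⁻¹))) *
        (evC L (tW j) * evC L (tW i)) := by group
    rw [h4, h3, one_mul]
  have c01 := hcomm id01
  have c02 := hcomm id02
  have c03 := hcomm id03
  have c04 := hcomm id04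
  have c12 := hcomm id12
  have c13 := hcomm id13
  have c14 := hcomm id14
  have c23 := hcomm id23
  have c24 := hcomm id24
  have c34 := hcomm id34
  have hz : (evC L spW) ^ 10 = evC L (tW 0) * evC L (tW 1) * evC L (tW 2) * evC L (tW 3) * evC L (tW 4) := by
    have h3 := evC_eq_one hC idSp
    rw [evC_append, evC_flat, evC_append, evC_append, evC_append, evC_append, evC_reverse h2, evC_reverse h2,
      evC_reverse h2, evC_reverse h2, evC_reverse h2] at h3
    rw [eq_inv_of_mul_eq_one_left h3]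
    group
  have hz3 : ((evC L spW) ^ 10) ^ 3 = 1 := by
    rw [hz]
    have c1 : Commute (evC L (tW 0) * evC L (tW 1)) (evC L (tW 2)) := c02.mul_left c12
    have c2 : Commute (evC L (tW 0) * evC L (tW 1) * evC L (tW 2)) (evC L (tW 3)) := (c03.mul_left c13).mul_left c23
    have c3 : Commute (evC L (tW 0) * evC L (tW 1) * evC L (tW 2) * evC L (tW 3)) (evC L (tW 4)) :=
      ((c04.mul_left c14).mul_left c24).mul_left c34
    rw [c3.mul_pow, c2.mul_pow, c1.mul_pow, c01.mul_pow, hT, hT, hT, hT, hT]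
    simp
  refine ⟨_, hzK, hz3, ?_⟩
  -- the quotient by the group generated by this element
  set z := (evC L spW) ^ 10 with hzdef
  have hzc : z ∈ Subgroup.center E := hτ.2.1 hzK
  haveI hNn : (Subgroup.zpowers z).Normal := by
    refine ⟨fun n hn g => ?_⟩
    have hn' : n ∈ Subgroup.center E := (Subgroup.zpowers_le.mpr hzc) hn
    rw [Subgroup.mem_center_iff.mp hn' g, mul_assoc, mul_inv_cancel, mul_one]
    exact hn
  let mkN : E →* E ⧸ Subgroup.zpowers z := QuotientGroup.mk' _
  have hmkz : mkN z = 1 := (QuotientGroup.eq_one_iff _).mpr (Subgroup.mem_zpowers z)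
  let g : Gen → E ⧸ Subgroup.zpowers z := fun x => mkN (L (code x))
  have hg : ∀ r ∈ RR, FreeGroup.lift g r = 1 := by
    intro r hr
    have hr' : r ∈ relL := hr
    unfold Cfsg.Agent.TcChain36.Fi22.Y232.relL Cfsg.Agent.Lib.TcPres.relAll at hr'
    rw [List.mem_append, List.mem_append] at hr'
    have hE1 : FreeGroup.lift g ((FreeGroup.of Gen.d * FreeGroup.of Gen.c * FreeGroup.of Gen.b * FreeGroup.of Gen.d * FreeGroup.of Gen.e
        * FreeGroup.of Gen.f * FreeGroup.of Gen.d * FreeGroup.of Gen.h * FreeGroup.of Gen.i) ^ 10) = 1 := by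
      have e : FreeGroup.lift g ((FreeGroup.of Gen.d * FreeGroup.of Gen.c * FreeGroup.of Gen.b * FreeGroup.of Gen.d * FreeGroup.of Gen.e
        * FreeGroup.of Gen.f * FreeGroup.of Gen.d * FreeGroup.of Gen.h * FreeGroup.of Gen.i) ^ 10) = (mkN (evC L spW)) ^ 10 := by
        rw [map_pow]
        congr 1
      rw [e, ← map_pow]
      exact hmkz
    have hE2 : FreeGroup.lift g ((FreeGroup.of Gen.b * FreeGroup.of Gen.c * FreeGroup.of Gen.d * FreeGroup.of Gen.e * FreeGroup.of Gen.f
        * FreeGroup.of Gen.g * FreeGroup.of Gen.h) ^ 9) = 1 := by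
      have : mkN ((evC L cE7) ^ 9) = 1 := by rw [hz1, map_one]
      rw [← this, map_pow, map_pow]
      congr 1
    have hex : ∀ r ∈ extra, FreeGroup.lift g r = 1 := by
      intro r hr
      rw [extra_eq] at hr
      simp only [List.mem_cons, List.not_mem_nil, or_false] at hr
      rcases hr with rfl | rfl
      · exact hE1
      · exact hE2
    rcases hr' with hr' | hr' | hr'
    · rw [List.mem_flatMap] at hr'
      obtain ⟨x, -, hr'⟩ := hr'
      rw [List.mem_map] at hr'
      obtain ⟨y, -, rfl⟩ := hr'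
      rw [map_pow, map_mul, FreeGroup.lift_apply_of, FreeGroup.lift_apply_of]
      have h3 := pair_lift hτ hodd h1 h2 (code x) (code y)
      rw [dc_code, dc_code] at h3
      show (mkN _ * mkN _) ^ _ = 1
      rw [← map_mul, ← map_pow, h3, map_one]
    · exact hex r hr'
    · rw [List.mem_map] at hr'
      obtain ⟨r', hr'', rfl⟩ := hr'
      rw [map_inv, hex r' hr'', inv_one]
  let ρ : Gp →* E ⧸ Subgroup.zpowers z := PresentedGroup.toGroup hg
  have hρ : ∀ i, ρ (Lt i) = mkN (L i) := by
    intro i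
    show ρ (PresentedGroup.of (dc i)) = _
    rw [PresentedGroup.toGroup.of hg]
    show mkN (L (code (dc i))) = _
    have e : L (code (dc i)) = L i := inv_uniq hτ hodd (h2 _) (h2 _) (by
      rw [h1, h1]
      show PresentedGroup.of (dc (code (dc i))) = PresentedGroup.of (dc i)
      rw [dc_code])
    rw [e]
  -- the lifts generate
  let B : Subgroup E := Subgroup.closure (Set.range L)
  have hBτ : B.map τ = ⊤ := by
    rw [MonoidHom.map_closure, eq_top_iff, ← PresentedGroup.closure_range_of, Subgroup.closure_le]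
    rintro _ ⟨x, rfl⟩
    refine Subgroup.subset_closure ⟨L (code x), ⟨code x, rfl⟩, ?_⟩
    rw [h1]
    show PresentedGroup.of (dc (code x)) = _
    rw [dc_code]
  have hdecomp : ∀ y : E, ∃ b ∈ B, ∃ k ∈ τ.ker, y = b * k := by
    intro y
    have h3 : τ y ∈ B.map τ := by
      rw [hBτ]
      exact Subgroup.mem_top _
    obtain ⟨b, hb, hby⟩ := h3
    refine ⟨b, hb, b⁻¹ * y, ?_, by group⟩
    rw [MonoidHom.mem_ker, map_mul, map_inv, hby, inv_mul_cancel]
  have hcl : commutator E ≤ B := by
    rw [commutator_def, Subgroup.commutator_le]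
    intro x _ y _
    obtain ⟨b₁, hb₁, k₁, hk₁, rfl⟩ := hdecomp x
    obtain ⟨b₂, hb₂, k₂, hk₂, rfl⟩ := hdecomp y
    rw [Cfsg.Agent.Lib.SchurStem.commutatorElement_mul_central_left _ _ _ (hτ.2.1 hk₁),
      Cfsg.Agent.Lib.SchurStem.commutatorElement_mul_central_right _ _ _ (hτ.2.1 hk₂)]
    rw [commutatorElement_def]
    exact mul_mem (mul_mem (mul_mem hb₁ hb₂) (inv_mem hb₁)) (inv_mem hb₂)
  have hBtop : ∀ y : E, y ∈ B := by
    intro y
    obtain ⟨b, hb, k, hk, rfl⟩ := hdecomp y
    exact mul_mem hb (hcl (hτ.2.2 hk))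
  have hloc : ∀ y : E, ρ (τ y) = mkN y := by
    intro y
    have h3 : B ≤ MonoidHom.eqLocus (ρ.comp τ) mkN := by
      rw [Subgroup.closure_le]
      rintro _ ⟨i, rfl⟩
      show ρ (τ (L i)) = mkN (L i)
      rw [h1, hρ]
    exact h3 (hBtop y)
  intro k hk
  have h3 := hloc k
  rw [MonoidHom.mem_ker.mp hk, map_one] at h3
  exact (QuotientGroup.eq_one_iff _).mp h3.symm

end Main

end Cfsg.Agent.TcChain36.M63
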