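import Mathlib
import Cfsg.Agent.TcChain36.M63.Lift
import Cfsg.Agent.TcChain36.M63.P3_b
import Cfsg.Agent.TcChain36.M63.P3_c
import Cfsg.Agent.TcChain36.M63.P3_d
import Cfsg.Agent.TcChain36.M63.P3_e
import Cfsg.Agent.TcChain36.M63.P3_f
import Cfsg.Agent.TcChain36.M63.P3_g
import Cfsg.Agent.TcChain36.M63.P3_h
import Cfsg.Agent.TcChain36.M63.P3_i

/-!
# The permutation representation of the triple cover of `PΩ₇(3)` on `3 · 3159` points
-/

set_option autoImplicit false
set_option maxRecDepth 100000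
set_option linter.all false
set_option Elab.async false

namespace Cfsg.Agent.TcChain36.M63

open Cfsg Cfsg.Agent.Lib.TcBits Cfsg.Agent.Lib.TcPres Cfsg.Spor
open Cfsg.Agent.TcChain36.Fi22.Y232 (Gen RR relL edges nodesL extra hrel)

/-- The programs of the generators. -/
def p3 : Gen → List (ℕ × ℕ)
  | .b => p3_b
  | .c => p3_c
  | .d => p3_d
  | .e => p3_e
  | .f => p3_f
  | .g => p3_g
  | .h => p3_h
  | .i => p3_i

theorem hv3 : ∀ x, validProg (2 ^ 14) (p3 x) = true := by
  intro x; cases x <;> decide +kernel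

/-- The central element. -/
noncomputable def omF : FreeGroup Gen :=
  (FreeGroup.of Gen.d * FreeGroup.of Gen.c * FreeGroup.of Gen.b * FreeGroup.of Gen.d * FreeGroup.of Gen.e
    * FreeGroup.of Gen.f * FreeGroup.of Gen.d * FreeGroup.of Gen.h * FreeGroup.of Gen.i) ^ 10

/-- The relator on `E₇`. -/
noncomputable def e7F : FreeGroup Gen :=
  (FreeGroup.of Gen.b * FreeGroup.of Gen.c * FreeGroup.of Gen.d * FreeGroup.of Gen.e * FreeGroup.of Gen.f
    * FreeGroup.of Gen.g * FreeGroup.of Gen.h) ^ 9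

/-- Commutators with the central element. -/
noncomputable def cmF (x : Gen) : FreeGroup Gen := omF * FreeGroup.of x * omF⁻¹ * (FreeGroup.of x)⁻¹

/-- The further relators. -/
noncomputable def extra3 : List (FreeGroup Gen) :=
  [omF ^ 3, e7F, cmF .b, cmF .c, cmF .d, cmF .e, cmF .f, cmF .g, cmF .h, cmF .i]

theorem hc3 : ∀ x ∈ nodesL, ∀ y ∈ nodesL, ∀ j, j < 14 →
    Nat.beq (wordApply (sgnProg p3) ((FreeGroup.of x * FreeGroup.of y) ^ coxLabel edges x y).toWord (slice 14 j)) (slice 14 j) = true := by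
  decide +kernel

theorem he3 : ∀ r ∈ extra3, ∀ j, j < 14 →
    Nat.beq (wordApply (sgnProg p3) r.toWord (slice 14 j)) (slice 14 j) = true := by
  decide +kernel

theorem om_moves : Nat.testBit (wordApply (sgnProg p3) omF.toWord (2 ^ 0)) 0 = false := by
  decide +kernel

end Cfsg.Agent.TcChain36.M63
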