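import Mathlib
import Cfsg.Agent.TcChain36.M63.Chk3
import Cfsg.Agent.Lib.Fi22O7.Linear

/-!
# The triple cover of `PΩ₇(3)`
-/

set_option autoImplicit false
set_option maxRecDepth 100000
set_option linter.all false

namespace Cfsg.Agent.TcChain36.M63

open Cfsg Cfsg.Agent.Lib.TcBits Cfsg.Agent.Lib.TcPres Cfsg.Spor
open Cfsg.Agent.TcChain36.Fi22.Y232 (Gen RR relL edges nodesL extra hrel)

/-- The relators of the triple cover. -/
abbrev R3 : Set (FreeGroup Gen) := coxRelators edges ∪ {r | r ∈ extra3}

/-- The triple cover. -/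
abbrev E3 := PresentedGroup R3

theorem hR3 : ∀ r ∈ R3, FreeGroup.lift (genPerm p3) r = 1 :=
  lift_of_checks (nodes := nodesL) (by intro x _; exact mem_nodes x) hv3
    (fun x hx y hy j hj => Nat.eq_of_beq_eq_true (hc3 x hx y hy j hj))
    (fun r hr j hj => Nat.eq_of_beq_eq_true (he3 r hr j hj))

/-- The central element. -/
noncomputable def om3 : E3 := PresentedGroup.mk R3 omF

theorem rel3 {r : FreeGroup Gen} (hr : r ∈ R3) : PresentedGroup.mk R3 r = 1 :=
  (QuotientGroup.eq_one_iff r).mpr (Subgroup.subset_normalClosure hr)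

theorem om3_ne : om3 ≠ 1 := by
  intro h
  have h1 := repOf_mk hR3 hv3 omF
  have h2 : repOf R3 p3 hR3 (PresentedGroup.mk R3 omF) = 1 := by
    have : PresentedGroup.mk R3 omF = 1 := h
    rw [this, map_one]
  rw [h2] at h1
  have h3 := testBit_wordApply (2 ^ 14) (sgnProg p3) omF.toWord (fun a _ => valid_sgnProg hv3 a) (2 ^ 0) 0
  rw [om_moves, ← h1, Equiv.Perm.one_apply] at h3
  simp at h3

theorem om3_cube : om3 ^ 3 = 1 := by
  have : (omF ^ 3) ∈ R3 := Or.inr (by decide +kernel)
  have h := rel3 this
  rwa [map_pow] at h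

theorem node_mem (x : Gen) : x ∈ coxNodes edges := by cases x <;> decide

theorem pair3 (x y : Gen) : ((PresentedGroup.of x : E3) * PresentedGroup.of y) ^ coxLabel edges x y = 1 := by
  have h := rel3 (r := (FreeGroup.of x * FreeGroup.of y) ^ coxLabel edges x y) (Or.inl ⟨x, node_mem x, y, node_mem y, rfl⟩)
  rwa [map_pow, map_mul] at h

theorem e73 : PresentedGroup.mk R3 e7F = 1 := rel3 (Or.inr (by decide +kernel))

theorem om3_comm (x : Gen) : om3 * PresentedGroup.of x = PresentedGroup.of x * om3 := by
  have hm : cmF x ∈ R3 := Or.inr (by cases x <;> decide +kernel)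
  have h := rel3 hm
  rw [cmF, map_mul, map_mul, map_mul, map_inv, map_inv] at h
  have h1 : om3 * PresentedGroup.of x * om3⁻¹ * (PresentedGroup.of x)⁻¹ = 1 := h
  calc om3 * PresentedGroup.of x = (om3 * PresentedGroup.of x * om3⁻¹ * (PresentedGroup.of x)⁻¹) * (PresentedGroup.of x * om3) := by group
    _ = _ := by rw [h1, one_mul]

theorem om3_center : om3 ∈ Subgroup.center E3 := by
  rw [Subgroup.mem_center_iff]
  intro g
  have hle : Subgroup.closure (Set.range (PresentedGroup.of (rels := R3))) ≤ Subgroup.centralizer ({om3} : Set E3) := by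
    rw [Subgroup.closure_le]
    rintro _ ⟨x, rfl⟩
    rw [SetLike.mem_coe, Subgroup.mem_centralizer_iff]
    rintro _ rfl
    exact om3_comm x
  rw [PresentedGroup.closure_range_of] at hle
  have := hle (Subgroup.mem_top g)
  rw [Subgroup.mem_centralizer_iff] at this
  exact (this om3 rfl).symm

/-- The map to the simple group. -/
noncomputable def sig3 : E3 →* Gp := PresentedGroup.toGroup (f := fun x => PresentedGroup.of x) (by
  have hom : FreeGroup.lift (fun x => (PresentedGroup.of x : Gp)) omF = 1 := by
    have h := hrel _ mem_sp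
    rw [map_pow] at h
    simp only [map_mul] at h
    rw [omF, map_pow]
    simp only [map_mul, FreeGroup.lift_apply_of]
    exact h
  have he : FreeGroup.lift (fun x => (PresentedGroup.of x : Gp)) e7F = 1 := by
    have h := hrel _ mem_E7
    rw [map_pow] at h
    simp only [map_mul] at h
    rw [e7F, map_pow]
    simp only [map_mul, FreeGroup.lift_apply_of]
    exact h
  rintro r (⟨x, -, y, -, rfl⟩ | hr)
  · rw [map_pow, map_mul, FreeGroup.lift_apply_of, FreeGroup.lift_apply_of]
    exact pair_rel x y
  · have hr' : r ∈ extra3 := hr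
    simp only [extra3, List.mem_cons, List.not_mem_nil, or_false] at hr'
    rcases hr' with rfl | rfl | rfl | rfl | rfl | rfl | rfl | rfl | rfl | rfl
    · rw [map_pow, hom, one_pow]
    · exact he
    all_goals
      rw [cmF, map_mul, map_mul, map_mul, map_inv, map_inv, hom]
      group)

theorem sig3_of (x : Gen) : sig3 (PresentedGroup.of x) = PresentedGroup.of x := PresentedGroup.toGroup.of _

theorem sig3_surj : Function.Surjective sig3 := by
  rw [← MonoidHom.range_eq_top, eq_top_iff, ← PresentedGroup.closure_range_of, Subgroup.closure_le]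
  rintro _ ⟨x, rfl⟩
  exact ⟨_, sig3_of x⟩

theorem sig3_om : sig3 om3 = 1 := by
  have h := hrel _ mem_sp
  rw [map_pow] at h
  simp only [map_mul] at h
  show sig3 (PresentedGroup.mk R3 omF) = 1
  rw [omF, map_pow, map_pow]
  simp only [map_mul]
  rw [← h]
  congr 1

/-- The map back. -/
theorem ker3 : sig3.ker ≤ Subgroup.zpowers om3 := by
  classical
  haveI hNn : (Subgroup.zpowers om3).Normal := by
    refine ⟨fun n hn g => ?_⟩
    have hn' : n ∈ Subgroup.center E3 := (Subgroup.zpowers_le.mpr om3_center) hn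
    rw [Subgroup.mem_center_iff.mp hn' g, mul_assoc, mul_inv_cancel, mul_one]
    exact hn
  let mkN : E3 →* E3 ⧸ Subgroup.zpowers om3 := QuotientGroup.mk' _
  have hmkz : mkN om3 = 1 := (QuotientGroup.eq_one_iff _).mpr (Subgroup.mem_zpowers om3)
  let g : Gen → E3 ⧸ Subgroup.zpowers om3 := fun x => mkN (PresentedGroup.of x)
  have hgm : ∀ w : FreeGroup Gen, FreeGroup.lift g w = mkN (PresentedGroup.mk R3 w) := by
    intro w
    have : FreeGroup.lift g = mkN.comp (PresentedGroup.mk R3) := by
      ext x
      simp [g]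
      rfl
    rw [this]
    rfl
  have hg : ∀ r ∈ RR, FreeGroup.lift g r = 1 := by
    intro r hr
    have hr' : r ∈ relL := hr
    unfold Cfsg.Agent.TcChain36.Fi22.Y232.relL Cfsg.Agent.Lib.TcPres.relAll at hr'
    rw [List.mem_append, List.mem_append] at hr'
    have hE1 : FreeGroup.lift g omF = 1 := by
      rw [hgm]
      exact hmkz
    have hE2 : FreeGroup.lift g e7F = 1 := by
      rw [hgm, e73, map_one]
    have hex : ∀ r ∈ extra, FreeGroup.lift g r = 1 := by
      intro r hr
      rw [extra_eq] at hr
      simp only [List.mem_cons, List.not_mem_nil, or_false] at hr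
      rcases hr with rfl | rfl
      · exact hE1
      · exact hE2
    rcases hr' with hr' | hr' | hr'
    · rw [List.mem_flatMap] at hr'
      obtain ⟨x, -, hr'⟩ := hr'
      rw [List.mem_map] at hr'
      obtain ⟨y, -, rfl⟩ := hr'
      rw [map_pow, map_mul, FreeGroup.lift_apply_of, FreeGroup.lift_apply_of]
      show (mkN _ * mkN _) ^ _ = 1
      rw [← map_mul, ← map_pow, pair3, map_one]
    · exact hex r hr'
    · rw [List.mem_map] at hr'
      obtain ⟨r', hr'', rfl⟩ := hr'
      rw [map_inv, hex r' hr'', inv_one]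
  let ρ : Gp →* E3 ⧸ Subgroup.zpowers om3 := PresentedGroup.toGroup hg
  have hloc : ∀ y : E3, ρ (sig3 y) = mkN y := by
    intro y
    have h3 : Subgroup.closure (Set.range (PresentedGroup.of (rels := R3))) ≤ MonoidHom.eqLocus (ρ.comp sig3) mkN := by
      rw [Subgroup.closure_le]
      rintro _ ⟨x, rfl⟩
      show ρ (sig3 (PresentedGroup.of x)) = mkN (PresentedGroup.of x)
      rw [sig3_of]
      exact PresentedGroup.toGroup.of hg
    rw [PresentedGroup.closure_range_of] at h3
    exact h3 (Subgroup.mem_top y)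
  intro k hk
  have h3 := hloc k
  rw [MonoidHom.mem_ker.mp hk, map_one] at h3
  exact (QuotientGroup.eq_one_iff _).mp h3.symm

theorem ker3_eq : sig3.ker = Subgroup.zpowers om3 :=
  le_antisymm ker3 (Subgroup.zpowers_le.mpr sig3_om)

theorem card_ker3 : Nat.card sig3.ker = 3 := by
  rw [ker3_eq, Nat.card_zpowers]
  haveI : Fact (Nat.Prime 3) := ⟨Nat.prime_three⟩
  exact orderOf_eq_prime om3_cube om3_ne

instance finite_E3 : Finite E3 := by
  haveI : Finite sig3.ker := Nat.finite_of_card_ne_zero (by rw [card_ker3]; norm_num)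
  haveI : Finite (E3 ⧸ sig3.ker) := Finite.of_equiv _ (QuotientGroup.quotientKerEquivOfSurjective sig3 sig3_surj).symm.toEquiv
  exact Finite.of_subgroup_quotient sig3.ker

/-- Abelian quotients are trivial. -/
theorem hom3_trivial {A : Type*} [CommGroup A] (f : E3 →* A) (g : E3) : f g = 1 := by
  have hs : ∀ x : Gen, (f (PresentedGroup.of x)) ^ 2 = 1 := by
    intro x
    have h := pair3 x x
    have h1 : coxLabel edges x x = 1 := by simp [coxLabel]
    rw [h1, pow_one] at h
    rw [pow_two, ← map_mul, h, map_one]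
  have edge : ∀ x y : Gen, coxLabel edges x y = 3 → f (PresentedGroup.of x) = f (PresentedGroup.of y) := by
    intro x y hxy
    have h := pair3 x y
    rw [hxy] at h
    have h2 := congrArg f h
    rw [map_pow, map_mul, map_one] at h2
    exact Cfsg.Agent.Lib.Fi22O7.eq_of_edge (hs x) (hs y) h2
  have e1 := edge .b .c (by decide)
  have e2 := edge .c .d (by decide)
  have e3 := edge .d .e (by decide)
  have e4 := edge .e .f (by decide)
  have e5 := edge .f .g (by decide)
  have e6 := edge .d .h (by decide)
  have e7 := edge .h .i (by decide)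
  have h := congrArg f e73
  rw [e7F, map_pow, map_one] at h
  simp only [map_pow, map_mul] at h
  have hc : f (PresentedGroup.of Gen.c) = f (PresentedGroup.of Gen.b) := e1.symm
  have hd : f (PresentedGroup.of Gen.d) = f (PresentedGroup.of Gen.b) := e2.symm.trans hc
  have hee : f (PresentedGroup.of Gen.e) = f (PresentedGroup.of Gen.b) := e3.symm.trans hd
  have hff : f (PresentedGroup.of Gen.f) = f (PresentedGroup.of Gen.b) := e4.symm.trans hee
  have hgg : f (PresentedGroup.of Gen.g) = f (PresentedGroup.of Gen.b) := e5.symm.trans hff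
  have hh : f (PresentedGroup.of Gen.h) = f (PresentedGroup.of Gen.b) := e6.symm.trans hd
  have hi : f (PresentedGroup.of Gen.i) = f (PresentedGroup.of Gen.b) := e7.symm.trans hh
  have h' : (f (PresentedGroup.of Gen.b) * f (PresentedGroup.of Gen.c) * f (PresentedGroup.of Gen.d) * f (PresentedGroup.of Gen.e)
      * f (PresentedGroup.of Gen.f) * f (PresentedGroup.of Gen.g) * f (PresentedGroup.of Gen.h)) ^ 9 = 1 := h
  rw [hc, hd, hee, hff, hgg, hh] at h'
  have hb : f (PresentedGroup.of Gen.b) = 1 := Cfsg.Agent.Lib.Fi22O7.one_of_odd (hs _) h'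
  have hall : ∀ x : Gen, f (PresentedGroup.of x) = 1 := by
    intro x
    cases x
    · exact hb
    · rw [hc, hb]
    · rw [hd, hb]
    · rw [hee, hb]
    · rw [hff, hb]
    · rw [hgg, hb]
    · rw [hh, hb]
    · rw [hi, hb]
  have hf1 : f = 1 := PresentedGroup.ext (fun x => by rw [hall x]; rfl)
  rw [hf1]
  rfl

theorem perfect3 : commutator E3 = ⊤ := by
  rw [eq_top_iff]
  intro g _
  have h1 : (Abelianization.of : E3 →* Abelianization E3) g = 1 := hom3_trivial _ g
  have h2 : (QuotientGroup.mk' (commutator E3)).ker = commutator E3 := QuotientGroup.ker_mk' _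
  rw [← h2]
  exact h1

theorem stem3 : IsStemExtension sig3 := by
  refine ⟨sig3_surj, ?_, ?_⟩
  · rw [ker3_eq, Subgroup.zpowers_le]
    exact om3_center
  · rw [perfect3]
    exact le_top

end Cfsg.Agent.TcChain36.M63
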