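import Mathlib
import Cfsg.Agent.TcChain36.M63.Lift
import Cfsg.Agent.Lib.Sp62Mult
import Cfsg.Agent.Lib.SpSimple
import Cfsg.Agent.Lib.SpCenter
import Cfsg.Agent.Lib.StMain
import Cfsg.Agent.Lib.SchurAsm

/-!
# The subgroup `Sp₆(2)` of odd index in `PΩ₇(3)` and the 2-part of the kernel of a stem extension
-/

set_option autoImplicit false
set_option maxRecDepth 100000
set_option linter.all false

namespace Cfsg.Agent.TcChain36.M63

open Cfsg Cfsg.Agent.Lib.CoxRw36 Cfsg.Agent.Lib.TcBits Cfsg.Agent.Lib.TcPres Cfsg.Agent.Lib.PresChain36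
  Cfsg.Agent.Lib.Fi22O7 Cfsg.Agent.Lib.SchurCoset46 Cfsg.Agent.Lib.SchurTower
open Cfsg.Agent.Lib.Sp62Mult (S0 sG R hFP card_S0 AT)
open Cfsg.Agent.TcChain36.Fi22.Y232 (Gen RR)

/-- Words for the generators. -/
def wY : ℕ → List ℕ
  | 0 => [4, 2, 3, 1, 2, 6, 1, 2, 3, 4, 5, 2, 3, 0, 1, 2, 0, 1, 0]
  | 1 => [1, 2, 6, 3, 4, 1, 2, 3, 0, 1, 2, 6, 4, 5, 4, 1, 2, 3, 2, 0, 1]
  | 2 => [4, 2, 3, 1, 2, 6, 1, 2, 3, 4, 5, 2, 3, 0, 1, 2, 0, 1, 0]
  | _ => [3, 4, 2, 3, 1, 2, 6, 3, 4, 5, 2, 3, 4, 1, 2, 3, 0, 1, 2, 6, 4, 5, 2, 3, 4, 1, 2, 3, 0, 1, 2]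

/-- The expansion of a word. -/
def expW : List ℕ → List ℕ
  | [] => []
  | l :: w => (if l % 2 = 0 then wY (l / 2) else (wY (l / 2)).reverse) ++ expW w

/-- The images of the generators. -/
noncomputable def yG (i : ℕ) : Gp := evC Lt (wY i)

theorem evW_y (r : List ℕ) : evW yG r = evC Lt (expW r) := by
  induction r with
  | nil => rfl
  | cons l w ih =>
    rw [evW, expW, evC_append, ih]
    congr 1
    rw [lett]
    split_ifs
    · rfl
    · rw [evC_reverse Lt_inv]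
      rfl

set_option Elab.async false in
theorem chk_R : ∀ r ∈ R, ∀ b ∈ baseL, wordApply (sgnProg pr) ((expW r).map fun i => (dc i, true)) (2 ^ b) = 2 ^ b := by
  decide +kernel

theorem hyR : ∀ r ∈ R, evW yG r = 1 := by
  intro r hr
  rw [evW_y]
  exact gp_one _ (chk_R r hr)

theorem card_Gp : Nat.card Gp = 4585351680 := card_spec.1

instance finite_Gp : Finite Gp := Nat.finite_of_card_ne_zero (by rw [card_Gp]; norm_num)

theorem yG_ne : yG 0 ≠ 1 := by
  intro h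
  have h1 := Cfsg.Agent.Lib.OutTree36.wa_spec hR hv dc (wY 0) (2 ^ 243) 243
  have h2 : Phi (evC Lt (wY 0)) = 1 := by
    have : evC Lt (wY 0) = 1 := h
    rw [this, map_one]
  have h3 : Cfsg.Agent.Lib.TcPres.repOf RR pr hR (Cfsg.Agent.Lib.OutTree36.evL (fun i => PresentedGroup.of (dc i)) (wY 0)) = 1 := h2
  rw [h3] at h1
  have h4 : Nat.testBit (wordApply (sgnProg pr) ((wY 0).map fun i => (dc i, true)) (2 ^ 243)) 243 = false := by
    decide +kernel
  rw [h4, Equiv.Perm.one_apply, Nat.testBit_two_pow_self] at h1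
  exact absurd h1 (by simp)

theorem center_S0 : Subgroup.center S0 = ⊥ := by
  rw [eq_bot_iff]
  intro z hz
  rcases Cfsg.Agent.Lib.SpCenter.mem_center_iff.mp hz with h | h
  · exact h
  · rw [h]
    apply Subtype.ext
    show -1 = _
    have h1 : (-1 : ZMod 2) = 1 := by decide
    ext i j
    simp only [Matrix.neg_apply]
    rw [← neg_one_mul, h1, one_mul]
    rfl

theorem perfect_S0 : commutator S0 = ⊤ := by
  apply Cfsg.Agent.Lib.SpPerfect.commutator_Sp_eq_top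
  exact Or.inl (by norm_num)

instance simple_S0 : IsSimpleGroup S0 := by
  haveI h : IsSimpleGroup (S0 ⧸ Subgroup.center S0) :=
    Cfsg.Agent.Lib.SpSimple.isSimpleGroup_PSp perfect_S0
  let e : (S0 ⧸ Subgroup.center S0) ≃* S0 := (QuotientGroup.quotientMulEquivOfEq center_S0).trans QuotientGroup.quotientBot
  exact e.symm.isSimpleGroup

/-- The embedding. -/
theorem exists_emb : ∃ α : S0 →* Gp, Function.Injective α := by
  obtain ⟨α, hα⟩ := hFP.exists_hom yG hyR
  refine ⟨α, ?_⟩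
  have hn : α.ker.Normal := inferInstance
  rcases hn.eq_bot_or_eq_top with h | h
  · exact (MonoidHom.ker_eq_bot_iff α).mp h
  · exfalso
    apply yG_ne
    rw [← hα 0 (by norm_num)]
    exact (MonoidHom.ker_eq_top_iff).mp h ▸ rfl

end Cfsg.Agent.TcChain36.M63
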