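import Mathlib
import Cfsg.Agent.TcChain36.M63.Emb

/-!
# The upper bound for the multiplier of `PΩ₇(3)`
-/

set_option autoImplicit false
set_option maxRecDepth 100000
set_option linter.all false

namespace Cfsg.Agent.TcChain36.M63

open Cfsg
open Cfsg.Agent.Lib.Sp62Mult (S0 sG R hFP card_S0 AT)
open Subgroup

section Up

variable {E : Type*} [Group E] [Finite E] {σ : E →* Gp}

/-- The transfer to the subgroup of odd index. -/
theorem two_part (hσ : IsStemExtension σ) :
    ∃ g₂ ∈ σ.ker, g₂ ^ 2 = 1 ∧ ∀ k ∈ σ.ker, k ^ 3159 ∈ zpowers g₂ := by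
  classical
  obtain ⟨α, hα⟩ := exists_emb
  set A : Subgroup Gp := α.range with hA
  haveI : Finite S0 := Nat.finite_of_card_ne_zero (by rw [card_S0]; norm_num)
  have hcardA : Nat.card A = 1451520 := by
    have : Nat.card A = Nat.card S0 := by
      rw [hA]
      exact (Nat.card_congr (MonoidHom.ofInjective hα).toEquiv).symm
    rw [this, card_S0]
  have hidx : A.index = 3159 := by
    have h := A.index_mul_card
    rw [hcardA, card_Gp] at h
    omega
  set H : Subgroup E := A.comap σ with hH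
  have hHidx : H.index = 3159 := by
    rw [hH, Subgroup.index_comap_of_surjective _ hσ.1, hidx]
  let e : S0 ≃* A := MonoidHom.ofInjective hα
  let Ψ : H →* S0 := e.symm.toMonoidHom.comp (σ.subgroupComap A)
  have hΨs : Function.Surjective Ψ :=
    e.symm.surjective.comp (σ.subgroupComap_surjective_of_surjective A hσ.1)
  have hΨk : ∀ x : H, Ψ x = 1 ↔ σ x = 1 := by
    intro x
    constructor
    · intro h
      have h1 : e (Ψ x) = σ.subgroupComap A x := e.apply_symm_apply _
      rw [h, map_one] at h1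
      exact (congrArg Subtype.val h1).symm
    · intro h
      show e.symm _ = 1
      have h1 : σ.subgroupComap A x = 1 := Subtype.ext h
      rw [h1, map_one]
  have hΨc : Ψ.ker ≤ center H := by
    intro x hx
    have h1 : σ x = 1 := (hΨk x).mp hx
    have h2 : (x : E) ∈ center E := hσ.2.1 h1
    rw [mem_center_iff]
    intro g
    exact Subtype.ext (mem_center_iff.mp h2 g)
  have hst := Cfsg.Agent.Lib.StMain.stem_of_central Ψ hΨs hΨc perfect_S0
  obtain ⟨π, hπ⟩ := Cfsg.Agent.Lib.Sp62Mult.upper _ hst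
  have hx1 : ∀ a : AT, a = 1 ∨ a = Multiplicative.ofAdd 1 := by
    intro a
    have : ∀ b : ZMod 2, b = 0 ∨ b = 1 := by decide
    exact this (Multiplicative.toAdd a)
  let g : (Ψ.comp (commutator H).subtype).ker := π (Multiplicative.ofAdd 1)
  have hgker : ((g : commutator H) : H).1 ∈ σ.ker := by
    have h1 : Ψ (g : commutator H) = 1 := g.2
    exact (hΨk _).mp h1
  have hg2 : g ^ 2 = 1 := by
    have : (Multiplicative.ofAdd (1 : ZMod 2)) ^ 2 = 1 := by decide
    rw [← map_pow, this, map_one]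
  refine ⟨((g : commutator H) : H).1, hgker, ?_, ?_⟩
  · have := congrArg (fun y : (Ψ.comp (commutator H).subtype).ker => ((y : commutator H) : H).1) hg2
    simpa using this
  · intro k hk
    obtain ⟨hkH, hkC⟩ := Cfsg.Agent.Lib.SchurStem.pow_index_mem_commutator H (hσ.2.1 hk) (hσ.2.2 hk)
    have hker : Ψ.comp (commutator H).subtype ⟨⟨k ^ H.index, hkH⟩, hkC⟩ = 1 := by
      show Ψ _ = 1
      rw [hΨk]
      show σ (k ^ H.index) = 1
      rw [map_pow, MonoidHom.mem_ker.mp hk, one_pow]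
    obtain ⟨a, ha⟩ := hπ ⟨⟨⟨k ^ H.index, hkH⟩, hkC⟩, hker⟩
    have h2 : k ^ H.index = ((π a : commutator H) : H).1 := by
      rw [ha]
    rw [← hHidx, h2]
    rcases hx1 a with rfl | rfl
    · rw [map_one]
      exact one_mem _
    · exact mem_zpowers _

/-- The upper bound. -/
theorem upper_main (hσ : IsStemExtension σ) : ∃ π : Multiplicative (ZMod 6) →* σ.ker, Function.Surjective π := by
  classical
  obtain ⟨g₂, hg₂K, hg₂2, hpow⟩ := two_part hσ
  set Z := zpowers g₂ with hZ
  have hZK : Z ≤ σ.ker := by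
    rw [hZ, zpowers_le]
    exact hg₂K
  have hZc : Z ≤ center E := hZK.trans hσ.2.1
  haveI hZn : Z.Normal := by
    refine ⟨fun n hn g => ?_⟩
    have hn' : n ∈ center E := hZc hn
    rw [mem_center_iff.mp hn' g, mul_assoc, mul_inv_cancel, mul_one]
    exact hn
  let τ : E ⧸ Z →* Gp := QuotientGroup.lift Z σ (fun x hx => hZK hx)
  have hτmk : ∀ y : E, τ (QuotientGroup.mk y) = σ y := fun y => rfl
  have hτ : IsStemExtension τ := by
    refine ⟨?_, ?_, ?_⟩
    · intro g
      obtain ⟨y, rfl⟩ := hσ.1 g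
      exact ⟨QuotientGroup.mk y, rfl⟩
    · intro x hx
      obtain ⟨y, rfl⟩ := QuotientGroup.mk_surjective x
      have h1 : y ∈ σ.ker := hx
      have h2 := hσ.2.1 h1
      rw [mem_center_iff] at h2 ⊢
      intro b
      obtain ⟨c, rfl⟩ := QuotientGroup.mk_surjective b
      show QuotientGroup.mk (c * y) = QuotientGroup.mk (y * c)
      rw [h2 c]
    · intro x hx
      obtain ⟨y, rfl⟩ := QuotientGroup.mk_surjective x
      have h1 : y ∈ σ.ker := hx
      have h2 := hσ.2.2 h1
      have h3 : (commutator E).map (QuotientGroup.mk' Z) = commutator (E ⧸ Z) :=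
        by
          rw [commutator_def, Subgroup.map_commutator, ← MonoidHom.range_eq_map,
            MonoidHom.range_eq_top.mpr (QuotientGroup.mk'_surjective Z), ← commutator_def]
      rw [← h3]
      exact ⟨y, h2, rfl⟩
  have hone : ∀ x ∈ τ.ker, x ^ 3159 = 1 := by
    intro x hx
    obtain ⟨y, rfl⟩ := QuotientGroup.mk_surjective x
    have h1 : y ∈ σ.ker := hx
    have h2 := hpow y h1
    rw [← QuotientGroup.mk_pow]
    exact (QuotientGroup.eq_one_iff _).mpr h2
  have hodd : Odd (Nat.card τ.ker) := by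
    by_contra hev
    rw [Nat.not_odd_iff_even] at hev
    haveI : Fact (Nat.Prime 2) := ⟨Nat.prime_two⟩
    obtain ⟨x, hx⟩ := exists_prime_orderOf_dvd_card' 2 (even_iff_two_dvd.mp hev)
    have h1 : (x : E ⧸ Z) ^ 3159 = 1 := hone _ x.2
    have h2 : x ^ 3159 = 1 := Subtype.ext h1
    have h3 := orderOf_dvd_of_pow_eq_one h2
    rw [hx] at h3
    omega
  obtain ⟨zb, hzbK, hzb3, hzb⟩ := lemmaO hτ hodd
  obtain ⟨z, rfl⟩ := QuotientGroup.mk_surjective zb
  have hzK : z ∈ σ.ker := hzbK
  have hz3 : z ^ 3 ∈ Z := by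
    rw [← QuotientGroup.mk_pow] at hzb3
    exact (QuotientGroup.eq_one_iff _).mp hzb3
  have hZel : ∀ t ∈ Z, t = 1 ∨ t = g₂ := by
    intro t ht
    obtain ⟨n, rfl⟩ := mem_zpowers_iff.mp ht
    rcases Int.even_or_odd' n with ⟨m, rfl | rfl⟩
    · left
      rw [zpow_mul, zpow_ofNat, hg₂2, one_zpow]
    · right
      rw [zpow_add, zpow_mul, zpow_ofNat, hg₂2, one_zpow, one_mul, zpow_one]
  have hcomm : ∀ a ∈ σ.ker, ∀ b : E, a * b = b * a := fun a ha b => (mem_center_iff.mp (hσ.2.1 ha) b).symm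
  have hgen : ∀ k ∈ σ.ker, ∃ n : ℤ, k = z ^ n ∨ k = z ^ n * g₂ := by
    intro k hk
    have h1 := hzb (QuotientGroup.mk k) hk
    obtain ⟨n, hn⟩ := mem_zpowers_iff.mp h1
    refine ⟨n, ?_⟩
    have h2 : (z ^ n)⁻¹ * k ∈ Z := by
      apply QuotientGroup.eq.mp
      rw [QuotientGroup.mk_zpow]
      exact hn
    rcases hZel _ h2 with h3 | h3
    · left
      calc k = z ^ n * ((z ^ n)⁻¹ * k) := by group
        _ = z ^ n := by rw [h3, mul_one]
    · right
      calc k = z ^ n * ((z ^ n)⁻¹ * k) := by group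
        _ = z ^ n * g₂ := by rw [h3]
  haveI : Fact (1 < 6) := ⟨by norm_num⟩
  have hcl : ∀ a : E, z ∈ closure ({a} : Set E) → g₂ ∈ closure ({a} : Set E) → σ.ker ≤ closure ({a} : Set E) := by
    intro a h1 h2 k hk
    obtain ⟨n, rfl | rfl⟩ := hgen k hk
    · exact zpow_mem h1 n
    · exact mul_mem (zpow_mem h1 n) h2
  have ha : ∀ a : E, a ∈ closure ({a} : Set E) := fun a => subset_closure rfl
  rcases hZel _ hz3 with h3 | h3
  · -- the product generates
    have c : Commute z g₂ := hcomm z hzK g₂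
    have e3 : (z * g₂) ^ 3 = g₂ := by
      rw [c.mul_pow, h3, one_mul, pow_succ, hg₂2, one_mul]
    have e4 : (z * g₂) ^ 4 = z := by
      rw [c.mul_pow, show (4 : ℕ) = 3 + 1 by norm_num, pow_add, h3, one_mul, pow_one, pow_add, pow_succ g₂ 2, hg₂2, one_mul, pow_one,
        show g₂ * g₂ = g₂ ^ 2 from (pow_two g₂).symm, hg₂2, mul_one]
    refine Cfsg.Agent.Lib.SchurAsm.exists_surj1 hσ (a := z * g₂) (mul_mem hzK hg₂K) ?_ (hcl _ ?_ ?_)
    · rw [c.mul_pow, show (6 : ℕ) = 3 * 2 by norm_num, pow_mul, pow_mul, h3, one_pow, one_mul, ← pow_mul, mul_comm 3 2, pow_mul, hg₂2, one_pow]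
    · have := pow_mem (ha (z * g₂)) 4
      rwa [e4] at this
    · have := pow_mem (ha (z * g₂)) 3
      rwa [e3] at this
  · refine Cfsg.Agent.Lib.SchurAsm.exists_surj1 hσ (a := z) hzK ?_ (hcl _ (ha _) ?_)
    · rw [show (6 : ℕ) = 3 * 2 by norm_num, pow_mul, h3, hg₂2]
    · rw [← h3]
      exact pow_mem (ha _) 3

end Up

end Cfsg.Agent.TcChain36.M63
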